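import Cfsg.Agent.H678.CCData

/-!
# A CC-subgroup with `|N(A) : A| = 4` and three known characters (helper730, S4844)
-/

set_option autoImplicit false

open Cfsg

namespace Cfsg.Agent.H730.Sq

open Cfsg.Agent.Characters Cfsg.Agent.Characters.CCBasic Cfsg.Agent.H678.CCExact Cfsg.Agent.Characters.CCValues

universe u

variable {G : Type u} [Group G] [Fintype G]

open scoped Classical in
theorem cc_four [Fintype (IrrCharacter G)] {A : Subgroup G} {s : ℕ} (D : CCData A s 4) (hs : s = 3 ∨ 6 ≤ s)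
    (hcard : Nat.card A = 4 * s + 1) {χ₂ χ₃ : IrrCharacter G} {n m : ℕ} (h2 : charDegree (χ₂ : G → ℂ) = n)
    (h3 : charDegree (χ₃ : G → ℂ) = m) (hn : (Nat.card A : ℤ) ∣ n - 1) (hm : (Nat.card A : ℤ) ∣ m + 1)
    (hn1 : n ≠ 1) (hm1 : m ≠ 1) (hnm : n ≠ m) (hodd : s = 3 → ¬ (2 : ℤ) ∣ 1 + n - m) :
    ∃ (f ε : ℤ) (ψ χ : IrrCharacter G), (f = 1 ∨ f = -1) ∧ (ε = 1 ∨ ε = -1) ∧
      (Nat.card A : ℤ) ∣ charDegree (ψ : G → ℂ) - f ∧
      1 + (n : ℤ) - m + f * charDegree (ψ : G → ℂ) = ε * charDegree (χ : G → ℂ) := by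
  have hA1 : 1 < Nat.card A := by omega
  have : Nontrivial A := Finite.one_lt_card_iff_nontrivial.1 hA1
  obtain ⟨a, ha⟩ := exists_ne (1 : A)
  have haG : (a : G) ≠ 1 := fun h => ha (Subtype.ext h)
  set χ₁ : IrrCharacter G := one G with hχ₁
  have e1 : (χ₁ : G → ℂ) = 1 := rfl
  have d1 : charDegree (χ₁ : G → ℂ) = 1 := by
    unfold charDegree
    rw [e1]
    simp
  have n12 : χ₁ ≠ χ₂ := by
    intro h
    rw [← h, d1] at h2
    exact hn1 h2.symm
  have n13 : χ₁ ≠ χ₃ := by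
    intro h
    rw [← h, d1] at h3
    exact hm1 h3.symm
  have n23 : χ₂ ≠ χ₃ := by
    intro h
    rw [← h, h2] at h3
    exact hnm h3
  have r1 : χ₁ ∉ D.R := by
    intro h
    obtain ⟨b, _, _, hb⟩ := D.nonconst χ₁ h 1
    exact hb (by rw [e1]; rfl)
  have f1 : D.f χ₁ = 1 := by
    have h := D.hf χ₁ r1 a a.2 haG
    rw [e1, Pi.one_apply] at h
    exact_mod_cast h.symm
  have hsq := D.sq
  have hsd := D.sd
  have hsplit : ∀ F : IrrCharacter G → ℤ, ∑ ψ, F ψ = F χ₁ + (F χ₂ + (F χ₃ +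
      ∑ ψ ∈ ((Finset.univ.erase χ₁).erase χ₂).erase χ₃, F ψ)) := by
    intro F
    rw [Finset.add_sum_erase _ F (by simp [n23.symm, n13.symm]), Finset.add_sum_erase _ F (by simp [n12.symm]),
      Finset.add_sum_erase _ F (Finset.mem_univ _)]
  have hle : ∀ ψ, D.f ψ ^ 2 ≤ ∑ ψ, D.f ψ ^ 2 := fun ψ =>
    Finset.single_le_sum (f := fun ψ => D.f ψ ^ 2) (fun _ _ => sq_nonneg _) (Finset.mem_univ ψ)
  have hS1 : 1 ≤ ∑ ψ, D.f ψ ^ 2 := by
    have := hle χ₁
    rw [f1] at this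
    simpa using this
  -- the error
  obtain ⟨hc, hcs⟩ : (D.c = 0 ∨ D.c = D.ε) ∧ (D.c ≠ 0 → s = 3) := by
    set c := D.c
    have hs3 : (3 : ℤ) ≤ s := by omega
    push_cast at hsq
    rcases D.hε with h | h <;> rw [h] at hsq ⊢
    · have h4 : (s : ℤ) * c ^ 2 ≤ 3 + 2 * c := by linarith
      have h5 : 3 * c ^ 2 ≤ 3 + 2 * c := (mul_le_mul_of_nonneg_right hs3 (sq_nonneg c)).trans h4
      have h6 : c ≤ 1 := by nlinarith
      have h7 : 0 ≤ c := by nlinarith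
      have h8 : c = 0 ∨ c = 1 := by omega
      refine ⟨h8, fun h0 => ?_⟩
      rw [h8.resolve_left h0] at h4
      omega
    · have h4 : (s : ℤ) * c ^ 2 ≤ 3 - 2 * c := by linarith
      have h5 : 3 * c ^ 2 ≤ 3 - 2 * c := (mul_le_mul_of_nonneg_right hs3 (sq_nonneg c)).trans h4
      have h6 : -1 ≤ c := by nlinarith
      have h7 : c ≤ 0 := by nlinarith
      have h8 : c = 0 ∨ c = -1 := by omega
      refine ⟨h8, fun h0 => ?_⟩
      rw [h8.resolve_left h0] at h4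
      omega
  have hS4 : ∑ ψ, D.f ψ ^ 2 ≤ 4 := by
    rcases hc with h | h
    · rw [h] at hsq
      push_cast at hsq
      linarith
    · by_cases h0 : D.c = 0
      · rw [h0] at hsq
        push_cast at hsq
        linarith
      · have h9 : (s : ℤ) = 3 := by exact_mod_cast hcs h0
        rw [h9, h] at hsq
        push_cast at hsq
        rcases D.hε with h | h <;> rw [h] at hsq <;> linarith
  have hf2 : ∀ ψ, D.f ψ ≤ 2 ∧ -2 ≤ D.f ψ := by
    intro ψ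
    have h4 := (hle ψ).trans hS4
    constructor <;> nlinarith
  have hP : (Nat.card A : ℤ) = 4 * s + 1 := by exact_mod_cast hcard
  have hP13 : (13 : ℤ) ≤ Nat.card A := by omega
  -- the degree of the exceptional characters
  have hddvd := D.ddvd
  have hdne : ∀ t : ℤ, t = 1 ∨ t = -1 → ¬ (Nat.card A : ℤ) ∣ D.d - t := by
    intro t ht h
    have h4 : (Nat.card A : ℤ) ∣ t - (D.ε * 4 + D.c) := by
      have := dvd_sub hddvd h
      push_cast at this
      rwa [show ((D.d : ℤ) - (D.ε * 4 + D.c)) - (D.d - t) = t - (D.ε * 4 + D.c) by ring] at this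
    have h5 := Int.eq_zero_of_abs_lt_dvd h4 (by
      rw [abs_lt]
      rcases D.hε with h | h <;> rcases hc with h' | h' <;> rcases ht with h'' | h'' <;> rw [h', h''] <;>
        (try rw [h]) <;> constructor <;> linarith)
    rcases D.hε with h | h <;> rcases hc with h' | h' <;> rcases ht with h'' | h'' <;> rw [h', h'', h] at h5 <;>
      norm_num at h5
  have key : ∀ (ψ : IrrCharacter G) (t : ℤ), t = 1 ∨ t = -1 → (Nat.card A : ℤ) ∣ charDegree (ψ : G → ℂ) - t →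
      ψ ∉ D.R ∧ D.f ψ = t := by
    intro ψ t ht h
    have h4 : ψ ∉ D.R := by
      intro h4
      rw [D.deg ψ h4] at h
      exact hdne t ht h
    refine ⟨h4, ?_⟩
    have h5 := dvd_sub h (D.dvd ψ h4)
    rw [show ((charDegree (ψ : G → ℂ) : ℤ) - t) - (charDegree (ψ : G → ℂ) - D.f ψ) = D.f ψ - t by ring] at h5
    have h6 := Int.eq_zero_of_abs_lt_dvd h5 (by
      obtain ⟨h7, h8⟩ := hf2 ψ
      rw [abs_lt]
      rcases ht with h9 | h9 <;> rw [h9] <;> constructor <;> linarith)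
    linarith
  obtain ⟨r2, f2⟩ := key χ₂ 1 (Or.inl rfl) (by rw [h2]; exact hn)
  obtain ⟨r3, f3⟩ := key χ₃ (-1) (Or.inr rfl) (by rw [h3, sub_neg_eq_add]; exact hm)
  rw [hsplit, f1, f2, f3] at hsq
  rw [hsplit, f1, f2, f3, d1, h2, h3] at hsd
  set T := ((Finset.univ.erase χ₁).erase χ₂).erase χ₃
  have hR : D.R.Nonempty := by
    rw [← Finset.card_pos, D.hcard]
    omega
  obtain ⟨χ, hχ⟩ := hR
  have hcT : D.c = 0 := by
    by_contra h0
    have h9' := hcs h0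
    have h9 : (s : ℤ) = 3 := by exact_mod_cast h9'
    have h10 := hc.resolve_left h0
    rw [h9, h10] at hsq hsd
    have h11 : ∑ ψ ∈ T, D.f ψ ^ 2 = 0 := by
      push_cast at hsq
      rcases D.hε with h | h <;> rw [h] at hsq <;> linarith
    have h12 : ∀ ψ ∈ T, D.f ψ = 0 := fun ψ hψ =>
      pow_eq_zero_iff (two_ne_zero) |>.1 ((Finset.sum_eq_zero_iff_of_nonneg (fun _ _ => sq_nonneg _)).1 h11 ψ hψ)
    rw [Finset.sum_eq_zero (fun ψ hψ => by rw [h12 ψ hψ, mul_zero])] at hsd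
    apply hodd h9'
    push_cast at hsd
    exact ⟨-(D.ε * D.d), by linear_combination hsd⟩
  rw [hcT] at hsq hsd
  have h11 : ∑ ψ ∈ T, D.f ψ ^ 2 = 1 := by
    push_cast at hsq
    linarith
  obtain ⟨ψ, hψT, hψ0⟩ : ∃ ψ ∈ T, D.f ψ ≠ 0 := by
    by_contra hno
    push Not at hno
    rw [Finset.sum_eq_zero (fun ψ hψ => by rw [hno ψ hψ]; norm_num)] at h11
    exact zero_ne_one h11
  have h12 : D.f ψ ^ 2 + ∑ ψ ∈ T.erase ψ, D.f ψ ^ 2 = 1 := by
    rw [Finset.add_sum_erase T (fun ψ => D.f ψ ^ 2) hψT, h11]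
  have h13 : 0 ≤ ∑ ψ ∈ T.erase ψ, D.f ψ ^ 2 := Finset.sum_nonneg fun _ _ => sq_nonneg _
  have h14 : 0 < D.f ψ ^ 2 := by positivity
  have h15 : D.f ψ ^ 2 = 1 := by omega
  have h16 : ∑ ψ ∈ T.erase ψ, D.f ψ ^ 2 = 0 := by omega
  have h17 : ∀ ψ' ∈ T.erase ψ, D.f ψ' = 0 := fun ψ' hψ' =>
    pow_eq_zero_iff (two_ne_zero) |>.1 ((Finset.sum_eq_zero_iff_of_nonneg (fun _ _ => sq_nonneg _)).1 h16 ψ' hψ')
  have hψR : ψ ∉ D.R := fun h => hψ0 (D.hf0 ψ h)
  rw [← Finset.add_sum_erase T _ hψT, Finset.sum_eq_zero (s := T.erase ψ) (fun ψ' hψ' => by rw [h17 ψ' hψ', mul_zero])] at hsd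
  have h18 : D.f ψ = 1 ∨ D.f ψ = -1 := by
    have h19 : (D.f ψ - 1) * (D.f ψ + 1) = 0 := by linear_combination h15
    rcases mul_eq_zero.1 h19 with h | h
    · exact Or.inl (by linarith)
    · exact Or.inr (by linarith)
  refine ⟨D.f ψ, D.ε, ψ, χ, h18, D.hε, D.dvd ψ hψR, ?_⟩
  rw [D.deg χ hχ]
  push_cast at hsd
  linear_combination hsd

end Cfsg.Agent.H730.Sq
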