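import Cfsg.Agent.H730.Sq.TdCC
import Cfsg.Agent.H83.Eight.TwD4
import Cfsg.Agent.H696.PSq.Defs
import Cfsg.Agent.S0135

/-!
# `³D₄(2)`, `p = 7`, and `³D₄(3)`, `p = 13`: a degree divisible by `p ^ 2` (helper730, S4844)
-/

set_option autoImplicit false

open Cfsg

namespace Cfsg.Agent.H730.Sq

open Cfsg.Agent.H33 Cfsg.Lie Cfsg.Agent.Nodes Cfsg.Agent.H83 Cfsg.Agent.H83.Eight Cfsg.Agent.Characters
  Cfsg.Agent.Characters.CCBasic Cfsg.Agent.Characters.CCEstimates Cfsg.Agent.H678.CCExact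

theorem deg_dvd {G : Type*} [Group G] [Finite G] {χ : G → ℂ} (hχ : IsIrrCharacter G χ) : charDegree χ ∣ Nat.card G := by
  obtain ⟨n, ρ, hρ, rfl⟩ := hχ
  have h1 : ρ.character 1 = (Module.finrank ℂ (Fin n → ℂ) : ℂ) := Representation.char_one ρ
  have h2 : charDegree ρ.character = Module.finrank ℂ (Fin n → ℂ) := by
    unfold charDegree
    rw [h1]
    simp
  rw [h2]
  have := hρ
  exact Cfsg.Agent.S0135.result ρ

section group

variable {K : Type} [Field K] [Fintype K] {q : ℕ} (hq : IsPrimePow q) (hK : Fintype.card K = q ^ 3)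

include hq hK

/-- the torus of order `q ^ 4 - q ^ 2 + 1` -/
theorem exists_cc {P : ℕ} (hP : P + q ^ 2 = q ^ 4 + 1) : ∃ A : Subgroup ↥(twistedD4 K q), IsCC A ∧ Nat.card A = P ∧
    len A = 4 := by
  classical
  obtain ⟨p, hch⟩ := CharP.exists K
  have hpf : Fact p.Prime := ⟨CharP.char_is_prime K p⟩
  have hfin : Finite ↥(twistedD4 K q) := inferInstance
  have := Fintype.ofFinite ↥(twistedD4 K q)
  obtain ⟨x0, hx0, hx0c, -⟩ := TorD4.exists_x0 hq hK p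
  have hPe : P = q ^ 4 - q ^ 2 + 1 := by
    have : q ^ 2 ≤ q ^ 4 := Nat.pow_le_pow_right hq.pos (by norm_num)
    omega
  have hP13 : 13 ≤ P := by
    obtain ⟨k, hk⟩ := Nat.exists_eq_add_of_le hq.two_le
    have h4 : q ^ 4 = q ^ 2 * q ^ 2 := by ring
    have h5 : 4 ≤ q ^ 2 := by
      have := Nat.pow_le_pow_left hq.two_le 2
      omega
    have h6 : q ^ 2 * q ^ 2 ≥ 4 * q ^ 2 := Nat.mul_le_mul_right _ h5
    omega
  have hcard : Nat.card ↥(Subgroup.zpowers x0) = P := by rw [Nat.card_zpowers, hx0, hPe]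
  have hA : Characters.CCBasic.IsCC (Subgroup.zpowers x0) := by
    refine ⟨fun h => ?_, hx0c⟩
    rw [h, Subgroup.card_bot] at hcard
    omega
  -- a prime divisor
  have hr := Nat.minFac_prime (n := P) (by omega)
  have hrP : P.minFac ∣ P := Nat.minFac_dvd P
  have hr4 : 4 < P.minFac := by
    obtain ⟨h2, h3⟩ := TorD4.prime_ne hr (by rw [← hPe]; exact hrP)
    have h4 := hr.two_le
    have h5 : P.minFac ≠ 4 := by
      intro h
      rw [h] at hr
      revert hr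
      decide
    omega
  have hidx : (Subgroup.zpowers x0).index ≡ 4 [MOD P.minFac] := by
    refine RowD4.index_mod hq.one_lt.le (m := P.minFac) (by rw [← hPe]; exact hrP) ?_
    rw [← S1067.result hq hK, ← hPe, ← hcard, mul_comm]
    exact (Subgroup.zpowers x0).card_mul_index
  have hN := CC.card_normalizer hA inferInstance hr (by rw [hcard]; exact hrP) hidx (by norm_num) hr4
  refine ⟨_, hA, hcard, ?_⟩
  have h1 := len_mul_card (Subgroup.zpowers x0)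
  have h2 : 0 < Nat.card ↥(Subgroup.zpowers x0) := by omega
  exact Nat.eq_of_mul_eq_mul_right h2 (h1.trans (by rw [hN]))

/-- the character data -/
theorem td_eq {P s n m : ℕ} (hP : P + q ^ 2 = q ^ 4 + 1) (hs : P = 4 * s + 1) (hs3 : s = 3 ∨ 6 ≤ s) (hn : n = q ^ 12)
    (hm : 2 * m = q ^ 3 * (q ^ 3 + 1) ^ 2) (h1 : (P : ℤ) ∣ n - 1) (h2 : (P : ℤ) ∣ m + 1) (hn1 : n ≠ 1) (hm1 : m ≠ 1)
    (hnm : n ≠ m) (hodd : s = 3 → ¬ (2 : ℤ) ∣ 1 + n - m) :
    ∃ (f ε : ℤ), ∃ a ∈ charDegrees ↥(twistedD4 K q), ∃ b ∈ charDegrees ↥(twistedD4 K q),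
      a ∣ Nat.card ↥(twistedD4 K q) ∧ b ∣ Nat.card ↥(twistedD4 K q) ∧ (f = 1 ∨ f = -1) ∧ (ε = 1 ∨ ε = -1) ∧
      (P : ℤ) ∣ a - f ∧ 1 + (n : ℤ) - m + f * a = ε * b := by
  classical
  have hfin : Finite ↥(twistedD4 K q) := inferInstance
  have := Fintype.ofFinite ↥(twistedD4 K q)
  have : Finite (IrrCharacter ↥(twistedD4 K q)) := Core.finite_irr
  have : Fintype (IrrCharacter ↥(twistedD4 K q)) := Fintype.ofFinite _
  obtain ⟨A, hA, hcard, hlen⟩ := exists_cc hq hK hP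
  obtain ⟨D⟩ := nonempty_ccData hA (s := s) hlen (by omega) (by omega)
  obtain ⟨⟨d2, hd2⟩, -⟩ := TwD4.exists_half q P
  obtain ⟨-, -, ⟨χ₃, h3⟩, -⟩ := TwD4.unip hq hK hP hd2 hm
  obtain ⟨χ₂, h4⟩ := TwD4.st hq hK
  obtain ⟨f, ε, ψ, χ, h5, h6, h7, h8⟩ := cc_four D hs3 (by rw [hcard, hs]) (h4.trans hn.symm) h3 (by rw [hcard]; exact h1)
    (by rw [hcard]; exact h2) hn1 hm1 hnm hodd
  refine ⟨f, ε, _, ⟨ψ, rfl⟩, _, ⟨χ, rfl⟩, deg_dvd ψ.2, deg_dvd χ.2,
    h5, h6, ?_, h8⟩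
  rw [← hcard]
  exact h7

end group

/-! ### numbers -/

/-- the test for one degree -/
def chk (c P N t a : ℕ) : Bool :=
  (a % P != 1 || N % (c + a) != 0 || (c + a) % t == 0) &&
    (a % P != P - 1 || N % ((c - a) + (a - c)) != 0 || ((c - a) + (a - c)) % t == 0)

theorem of_chk {c P N t a : ℕ} (h : chk c P N t a = true) :
    (a % P = 1 → c + a ∣ N → t ∣ c + a) ∧ (a % P = P - 1 → (c - a) + (a - c) ∣ N → t ∣ (c - a) + (a - c)) := by
  simp only [chk, Bool.and_eq_true, Bool.or_eq_true, bne_iff_ne, beq_iff_eq, ne_eq] at h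
  obtain ⟨h1, h2⟩ := h
  refine ⟨fun h3 h4 => Nat.dvd_of_mod_eq_zero ?_, fun h3 h4 => Nat.dvd_of_mod_eq_zero ?_⟩
  · rcases h1 with (h1 | h1) | h1
    · exact absurd h3 h1
    · exact absurd (Nat.mod_eq_zero_of_dvd h4) h1
    · exact h1
  · rcases h2 with (h2 | h2) | h2
    · exact absurd h3 h2
    · exact absurd (Nat.mod_eq_zero_of_dvd h4) h2
    · exact h2

theorem num_two : ∀ i < 13, ∀ j < 5, ∀ k < 3, chk 3773 13 211341312 49 (2 ^ i * (3 ^ j * 7 ^ k)) = true := by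
  decide +kernel

theorem num_three : ∀ i < 7, ∀ j < 13, ∀ k < 3, ∀ l < 3,
    chk 520858 73 20560831566912 169 (2 ^ i * (3 ^ j * (7 ^ k * 13 ^ l))) = true := by
  decide +kernel

theorem dvd_exp {m n : ℕ} {x y p i : ℕ} (hp : p.Prime) (h : m ∣ p ^ i * n) (hx : x = i + 1) (hy : y = n) :
    ∃ e < x, ∃ m', m' ∣ y ∧ m = p ^ e * m' := by
  subst hx hy
  obtain ⟨a, b, ha, hb, rfl⟩ := (Nat.dvd_mul).1 h
  obtain ⟨e, he, rfl⟩ := (Nat.dvd_prime_pow hp).1 ha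
  exact ⟨e, by omega, b, hb, rfl⟩

/-- from the integer equation to the natural numbers -/
theorem final {c a b P N t : ℕ} {f ε : ℤ} (hf : f = 1 ∨ f = -1) (hε : ε = 1 ∨ ε = -1) (hP2 : 2 ≤ P) (hPa : (P : ℤ) ∣ a - f)
    (he : (c : ℤ) + f * a = ε * b) (hb : b ∣ N)
    (hc : (a % P = 1 → c + a ∣ N → t ∣ c + a) ∧ (a % P = P - 1 → (c - a) + (a - c) ∣ N → t ∣ (c - a) + (a - c))) : t ∣ b := by
  rcases hf with rfl | rfl
  · have h1 : b = c + a := by
      rcases hε with rfl | rfl <;> omega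
    rw [h1] at hb ⊢
    refine hc.1 ?_ hb
    have h2 : (a : ℤ) ≡ 1 [ZMOD P] := ((Int.modEq_iff_dvd).2 hPa).symm
    have h3 : a ≡ 1 [MOD P] := by exact_mod_cast h2
    rw [Nat.ModEq, Nat.mod_eq_of_lt (show 1 < P by omega)] at h3
    exact h3
  · have h1 : b = (c - a) + (a - c) := by
      rcases hε with rfl | rfl <;> omega
    rw [h1] at hb ⊢
    refine hc.2 ?_ hb
    have h2 : (P : ℤ) ∣ ((a + 1 : ℕ) : ℤ) := by
      push_cast
      rwa [sub_neg_eq_add] at hPa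
    have h3 : P ∣ a + 1 := by exact_mod_cast h2
    obtain ⟨k, hk⟩ := h3
    obtain ⟨k', rfl⟩ : ∃ k', k = k' + 1 := ⟨k - 1, by
      rcases k with _ | k
      · omega
      · rfl⟩
    have h4 : a = (P - 1) + P * k' := by
      have : P * (k' + 1) = P * k' + P := by ring
      omega
    rw [h4, Nat.add_mul_mod_self_left, Nat.mod_eq_of_lt (by omega)]

/-! ### the two groups -/

variable {K : Type} [Field K] [Fintype K]

theorem cop_of {P a : ℕ} {f : ℤ} (hP : P.Prime) (hf : f = 1 ∨ f = -1) (h : (P : ℤ) ∣ a - f) : Nat.Coprime a P := by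
  rw [Nat.coprime_comm, Nat.Prime.coprime_iff_not_dvd hP]
  intro h1
  have h2 : (P : ℤ) ∣ (a : ℤ) := by exact_mod_cast h1
  have h3 : (P : ℤ) ∣ f := by
    have := dvd_sub h2 h
    rwa [sub_sub_cancel] at this
  have h4 : (P : ℤ) ∣ 1 := by
    rcases hf with rfl | rfl
    · exact h3
    · exact (dvd_neg).1 h3
  have h5 : P ∣ 1 := by exact_mod_cast h4
  exact hP.one_lt.ne' (Nat.dvd_one.1 h5)

/-- **`³D₄(2)`**, `p = 7` -/
theorem td_two (hK : Fintype.card K = 2 ^ 3) : IM (7 ^ 2) ↥(twistedD4 K 2) := by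
  have hq : IsPrimePow 2 := Nat.prime_two.isPrimePow
  have hN : Nat.card ↥(twistedD4 K 2) = 211341312 := by
    rw [S1067.result hq hK]
    norm_num
  obtain ⟨f, ε, a, ⟨-, -⟩, b, ⟨χ, rfl⟩, ha, hb, hf, hε, hPa, he⟩ := td_eq hq hK (P := 13) (s := 3) (n := 4096) (m := 324)
    (by norm_num) (by norm_num) (Or.inl rfl) (by norm_num) (by norm_num) (by norm_num) (by norm_num) (by norm_num)
    (by norm_num) (by norm_num) (fun _ => by norm_num)
  rw [hN] at ha hb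
  have hc := cop_of (P := 13) (by norm_num) hf hPa
  have ha' : a ∣ 2 ^ 12 * (3 ^ 4 * 7 ^ 2) := by
    refine hc.dvd_of_dvd_mul_right ?_
    norm_num
    exact ha
  obtain ⟨i, hi, a1, ha1, rfl⟩ := dvd_exp (x := 13) (y := 3 ^ 4 * 7 ^ 2) Nat.prime_two ha' rfl rfl
  obtain ⟨j, hj, a2, ha2, rfl⟩ := dvd_exp (x := 5) (y := 7 ^ 2) Nat.prime_three ha1 rfl rfl
  obtain ⟨k, hk, rfl⟩ := (Nat.dvd_prime_pow (by norm_num : Nat.Prime 7)).1 ha2
  refine ⟨χ, ?_⟩
  have h := final (c := 3773) (t := 49) hf hε (by norm_num) hPa (by rw [← he]; norm_num) hb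
    (of_chk (num_two i hi j hj k (by omega)))
  exact h

/-- **`³D₄(3)`**, `p = 13` -/
theorem td_three (hK : Fintype.card K = 3 ^ 3) : IM (13 ^ 2) ↥(twistedD4 K 3) := by
  have hq : IsPrimePow 3 := Nat.prime_three.isPrimePow
  have hN : Nat.card ↥(twistedD4 K 3) = 20560831566912 := by
    rw [S1067.result hq hK]
    norm_num
  obtain ⟨f, ε, a, ⟨-, -⟩, b, ⟨χ, rfl⟩, ha, hb, hf, hε, hPa, he⟩ := td_eq hq hK (P := 73) (s := 18) (n := 531441)
    (m := 10584)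
    (by norm_num) (by norm_num) (Or.inr (by norm_num)) (by norm_num) (by norm_num) (by norm_num) (by norm_num) (by norm_num)
    (by norm_num) (by norm_num) (fun h => by norm_num at h)
  rw [hN] at ha hb
  have hc := cop_of (P := 73) (by norm_num) hf hPa
  have ha' : a ∣ 2 ^ 6 * (3 ^ 12 * (7 ^ 2 * 13 ^ 2)) := by
    refine hc.dvd_of_dvd_mul_right ?_
    norm_num
    exact ha
  obtain ⟨i, hi, a1, ha1, rfl⟩ := dvd_exp (x := 7) (y := 3 ^ 12 * (7 ^ 2 * 13 ^ 2)) Nat.prime_two ha' rfl rfl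
  obtain ⟨j, hj, a2, ha2, rfl⟩ := dvd_exp (x := 13) (y := 7 ^ 2 * 13 ^ 2) Nat.prime_three ha1 rfl rfl
  obtain ⟨k, hk, a3, ha3, rfl⟩ := dvd_exp (x := 3) (y := 13 ^ 2) (by norm_num : Nat.Prime 7) ha2 rfl rfl
  obtain ⟨l, hl, rfl⟩ := (Nat.dvd_prime_pow (by norm_num : Nat.Prime 13)).1 ha3
  refine ⟨χ, ?_⟩
  have h := final (c := 520858) (t := 169) hf hε (by norm_num) hPa (by rw [← he]; norm_num) hb
    (of_chk (num_three i hi j hj k hk l (by omega)))
  exact h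

end Cfsg.Agent.H730.Sq
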